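import Mathlib

/-!
# Quaternion pairs of `2 × 2` matrices

`I, J` with `I² = J² = -1`, `IJ = -JI` over a field of characteristic `≠ 2`: traces, determinants,
the commutant is scalar, and the element `U = (1 + I + J + IJ)/2` of trace `1`, determinant `1`
with `U I = J U`, `U J = (IJ) U`.
-/

set_option autoImplicit false

namespace Cfsg.Agent.Lib.Helper67.QuatMat

open Matrix

variable {F : Type*} [Field F]

theorem cayley (A : Matrix (Fin 2) (Fin 2) F) :
    A * A = A.trace • A - A.det • (1 : Matrix (Fin 2) (Fin 2) F) := by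
  ext i j
  fin_cases i <;> fin_cases j <;>
    simp [Matrix.mul_apply, Fin.sum_univ_two, Matrix.trace_fin_two, Matrix.det_fin_two] <;> ring

theorem anticomm (A B : Matrix (Fin 2) (Fin 2) F) (hA : A.trace = 0) (hB : B.trace = 0) :
    A * B + B * A = (A * B).trace • (1 : Matrix (Fin 2) (Fin 2) F) := by
  rw [Matrix.trace_fin_two] at hA hB
  ext i j
  fin_cases i <;> fin_cases j <;>
    simp [Matrix.mul_apply, Fin.sum_univ_two, Matrix.trace_fin_two]
  · linear_combination (B 0 0) * hA + (-A 1 1) * hB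
  · linear_combination (B 0 1) * hA + (A 0 1) * hB
  · linear_combination (B 1 0) * hA + (A 1 0) * hB
  · linear_combination (B 1 1) * hA + (-A 0 0) * hB

theorem one_ne_zero' : (1 : Matrix (Fin 2) (Fin 2) F) ≠ 0 := one_ne_zero

theorem smul_one_inj {a b : F} (h : a • (1 : Matrix (Fin 2) (Fin 2) F) = b • 1) : a = b := by
  have := congrFun (congrFun h 0) 0
  simpa using this

/-- a quaternion pair -/
structure QPair (I J : Matrix (Fin 2) (Fin 2) F) : Prop where
  sqI : I * I = -1
  sqJ : J * J = -1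
  anti : I * J = -(J * I)

namespace QPair

variable {I J : Matrix (Fin 2) (Fin 2) F}

theorem symm (h : QPair I J) : QPair J I :=
  ⟨h.sqJ, h.sqI, by rw [h.anti, neg_neg]⟩

theorem IJI (h : QPair I J) : I * J * I = J := by
  rw [h.anti, neg_mul, mul_assoc, h.sqI, mul_neg, mul_one, neg_neg]

theorem JIJ (h : QPair I J) : J * I * J = I := h.symm.IJI

theorem IIJ (h : QPair I J) : I * (I * J) = -J := by
  rw [← mul_assoc, h.sqI, neg_mul, one_mul]

theorem IJJ (h : QPair I J) : I * J * J = -I := by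
  rw [mul_assoc, h.sqJ, mul_neg, mul_one]

theorem mulK (h : QPair I J) : QPair I (I * J) := by
  refine ⟨h.sqI, ?_, ?_⟩
  · calc I * J * (I * J) = (I * J * I) * J := by rw [mul_assoc, mul_assoc, mul_assoc]
      _ = -1 := by rw [h.IJI, h.sqJ]
  · rw [h.IIJ, h.IJI]

theorem JI_ne_zero (h : QPair I J) : J * I ≠ 0 := by
  intro h0
  have h1 : (J * I) * (I * J) = 1 := by
    calc (J * I) * (I * J) = J * (I * I) * J := by simp only [mul_assoc]
      _ = 1 := by rw [h.sqI, mul_neg, mul_one, neg_mul, h.sqJ, neg_neg]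
  rw [h0, zero_mul] at h1
  exact one_ne_zero' h1.symm

theorem not_commute (h : QPair I J) (h2 : (2 : F) ≠ 0) : I * J ≠ J * I := by
  intro hc
  have h1 : (2 : F) • (J * I) = 0 := by
    have : J * I = -(J * I) := by rw [← hc]; exact h.anti.trans (by rw [hc])
    rw [two_smul]
    nth_rewrite 1 [this]
    simp
  rcases smul_eq_zero.1 h1 with h3 | h3
  · exact h2 h3
  · exact h.JI_ne_zero h3

theorem trace_I (h : QPair I J) (h2 : (2 : F) ≠ 0) : I.trace = 0 := by
  by_contra ht
  have hc := cayley I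
  rw [h.sqI] at hc
  have hI : I = (I.trace⁻¹ * (I.det - 1)) • (1 : Matrix (Fin 2) (Fin 2) F) := by
    have h3 : I.trace • I = (I.det - 1) • (1 : Matrix (Fin 2) (Fin 2) F) := by
      rw [sub_smul, one_smul]
      have : I.trace • I = -1 + I.det • (1 : Matrix (Fin 2) (Fin 2) F) := by rw [hc]; abel
      rw [this]; abel
    rw [mul_smul, ← h3, smul_smul, inv_mul_cancel₀ ht, one_smul]
  apply h.not_commute h2
  rw [hI]
  simp

theorem det_I (h : QPair I J) (h2 : (2 : F) ≠ 0) : I.det = 1 := by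
  have hc := cayley I
  rw [h.sqI, h.trace_I h2, zero_smul, zero_sub] at hc
  have : (1 : F) • (1 : Matrix (Fin 2) (Fin 2) F) = I.det • 1 := by
    rw [one_smul]; exact neg_injective hc
  exact (smul_one_inj this).symm

theorem trace_J (h : QPair I J) (h2 : (2 : F) ≠ 0) : J.trace = 0 := h.symm.trace_I h2

theorem det_J (h : QPair I J) (h2 : (2 : F) ≠ 0) : J.det = 1 := h.symm.det_I h2

theorem trace_K (h : QPair I J) (h2 : (2 : F) ≠ 0) : (I * J).trace = 0 := h.mulK.trace_J h2

/-- the commutant of a quaternion pair is scalar -/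
theorem scalar_of_commute (h : QPair I J) (h2 : (2 : F) ≠ 0) (Y : Matrix (Fin 2) (Fin 2) F)
    (hI : Y * I = I * Y) (hJ : Y * J = J * Y) : ∃ c : F, Y = c • (1 : Matrix (Fin 2) (Fin 2) F) := by
  set c : F := 2⁻¹ * Y.trace with hc
  set Y0 : Matrix (Fin 2) (Fin 2) F := Y - c • 1 with hY0
  have ht0 : Y0.trace = 0 := by
    rw [hY0, Matrix.trace_sub, Matrix.trace_smul, Matrix.trace_one, hc]
    simp
    field_simp
    ring
  have hI0 : Y0 * I = I * Y0 := by
    rw [hY0, sub_mul, mul_sub, hI]; simp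
  have hJ0 : Y0 * J = J * Y0 := by
    rw [hY0, sub_mul, mul_sub, hJ]; simp
  have ha := anticomm Y0 I ht0 (h.trace_I h2)
  set s : F := (Y0 * I).trace with hs
  rw [← hI0, ← two_smul F] at ha
  -- `Y0 = -(s/2) I`
  have h3 : (2 : F) • Y0 = (-s) • I := by
    have h4 : ((2 : F) • (Y0 * I)) * I = (s • (1 : Matrix (Fin 2) (Fin 2) F)) * I := by rw [ha]
    rw [smul_mul_assoc, mul_assoc, h.sqI, smul_mul_assoc, one_mul, mul_neg, mul_one, smul_neg] at h4
    rw [neg_smul, ← h4, neg_neg]
  have h5 : (-s) • (I * J) = (-s) • (J * I) := by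
    rw [← smul_mul_assoc, ← h3, ← mul_smul_comm, ← h3, smul_mul_assoc, mul_smul_comm, hJ0]
  have hs0 : s = 0 := by
    by_contra hne
    have hne' : -s ≠ 0 := neg_ne_zero.2 hne
    apply h.not_commute h2
    have := congrArg (fun M => (-s)⁻¹ • M) h5
    simp only [smul_smul, inv_mul_cancel₀ hne', one_smul] at this
    exact this
  rw [hs0, neg_zero, zero_smul] at h3
  have hY00 : Y0 = 0 := by
    rcases smul_eq_zero.1 h3 with h6 | h6
    · exact absurd h6 h2
    · exact h6
  exact ⟨c, by rw [← sub_eq_zero]; exact hY00⟩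

/-- the Hurwitz unit -/
noncomputable def U (I J : Matrix (Fin 2) (Fin 2) F) : Matrix (Fin 2) (Fin 2) F :=
  (2⁻¹ : F) • (1 + I + J + I * J)

theorem U_mul_I (h : QPair I J) : U I J * I = J * U I J := by
  unfold U
  rw [smul_mul_assoc, mul_smul_comm]
  congr 1
  rw [add_mul, add_mul, add_mul, mul_add, mul_add, mul_add, one_mul, mul_one, h.sqI, h.sqJ, h.IJI,
    ← mul_assoc, h.JIJ]
  abel

theorem U_mul_J (h : QPair I J) : U I J * J = (I * J) * U I J := by
  unfold U
  rw [smul_mul_assoc, mul_smul_comm]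
  congr 1
  rw [add_mul, add_mul, add_mul, mul_add, mul_add, mul_add, one_mul, mul_one, h.sqJ, h.IJJ, h.IJI,
    h.mulK.sqJ]
  abel

theorem trace_U (h : QPair I J) (h2 : (2 : F) ≠ 0) : (U I J).trace = 1 := by
  unfold U
  rw [Matrix.trace_smul, Matrix.trace_add, Matrix.trace_add, Matrix.trace_add, h.trace_I h2,
    h.trace_J h2, h.trace_K h2, Matrix.trace_one]
  simp
  field_simp

theorem U_sq (h : QPair I J) (h2 : (2 : F) ≠ 0) : U I J * U I J = U I J - 1 := by
  have h4 : (1 + I + J + I * J) * (1 + I + J + I * J) =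
      (2 : F) • (1 + I + J + I * J) - (4 : F) • (1 : Matrix (Fin 2) (Fin 2) F) := by
    have e1 : J * I = -(I * J) := h.symm.anti
    have e2 : J * (I * J) = I := by rw [← mul_assoc, h.JIJ]
    have e3 : (4 : F) • (1 : Matrix (Fin 2) (Fin 2) F) = 1 + 1 + 1 + 1 := by
      have : (4 : F) = 1 + 1 + 1 + 1 := by norm_num
      rw [this, add_smul, add_smul, add_smul, one_smul]
    simp only [add_mul, mul_add, one_mul, mul_one, h.sqI, h.sqJ, h.IJI, h.IJJ, h.IIJ, h.mulK.sqJ,
      e1, e2, e3, two_smul]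
    abel
  unfold U
  rw [smul_mul_assoc, mul_smul_comm, h4, smul_sub, smul_sub, smul_smul, smul_smul, smul_smul,
    smul_smul]
  have a1 : (2⁻¹ : F) * 2⁻¹ * 2 = 2⁻¹ := by field_simp
  have a2 : (2⁻¹ : F) * 2⁻¹ * 4 = 1 := by field_simp; norm_num
  rw [a1, a2, one_smul]

theorem det_U (h : QPair I J) (h2 : (2 : F) ≠ 0) : (U I J).det = 1 := by
  have hc := cayley (U I J)
  rw [h.U_sq h2, h.trace_U h2, one_smul] at hc
  have : (1 : F) • (1 : Matrix (Fin 2) (Fin 2) F) = (U I J).det • 1 := by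
    rw [one_smul]; exact sub_right_injective hc
  exact (smul_one_inj this).symm

end QPair

/-- a non-scalar matrix of determinant `1` with scalar square has trace `0` -/
theorem trace_of_sq_scalar (x : Matrix (Fin 2) (Fin 2) F) (hd : x.det = 1) (z : F)
    (hx : x * x = z • (1 : Matrix (Fin 2) (Fin 2) F))
    (hns : ∀ c : F, x ≠ c • (1 : Matrix (Fin 2) (Fin 2) F)) : x.trace = 0 := by
  by_contra ht
  have hc := cayley x
  rw [hx, hd, one_smul] at hc
  apply hns (x.trace⁻¹ * (z + 1))
  have h3 : x.trace • x = (z + 1) • (1 : Matrix (Fin 2) (Fin 2) F) := by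
    rw [add_smul, one_smul, hc]; abel
  rw [mul_smul, ← h3, smul_smul, inv_mul_cancel₀ ht, one_smul]

/-- a non-scalar matrix of determinant `1` with scalar cube has trace `±1` -/
theorem trace_of_cube_scalar (x : Matrix (Fin 2) (Fin 2) F) (hd : x.det = 1) (z : F)
    (hx : x * x * x = z • (1 : Matrix (Fin 2) (Fin 2) F))
    (hns : ∀ c : F, x ≠ c • (1 : Matrix (Fin 2) (Fin 2) F)) : x.trace = 1 ∨ x.trace = -1 := by
  set t := x.trace with ht
  have hc := cayley x
  rw [hd, one_smul, ← ht] at hc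
  have h3 : (t ^ 2 - 1) • x = (z + t) • (1 : Matrix (Fin 2) (Fin 2) F) := by
    have : x * x * x = (t ^ 2 - 1) • x - t • (1 : Matrix (Fin 2) (Fin 2) F) := by
      rw [hc, sub_mul, smul_mul_assoc, hc, one_mul, smul_sub, smul_smul, sub_smul, one_smul, pow_two]
      abel
    rw [hx] at this
    rw [add_smul, this]; abel
  have h4 : t ^ 2 - 1 = 0 := by
    by_contra hne
    apply hns ((t ^ 2 - 1)⁻¹ * (z + t))
    rw [mul_smul, ← h3, smul_smul, inv_mul_cancel₀ hne, one_smul]
  have h5 : (t - 1) * (t + 1) = 0 := by linear_combination h4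
  rcases mul_eq_zero.1 h5 with h6 | h6
  · left; linear_combination h6
  · right; linear_combination h6

end Cfsg.Agent.Lib.Helper67.QuatMat
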