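import Mathlib
import Cfsg.Prelude.Def_Transfer
import Cfsg.Agent.Lib.Helper15.Ward.Defs

/-!
# Ward's theorem (S3796), piece C: from the ambient form to the statement
-/

set_option autoImplicit false

open Subgroup Cfsg.Agent.Lib.Helper88 Cfsg.Agent.Lib.Helper15.Ward

namespace Cfsg.Agent.Lib.Helper67.Ward

universe u

theorem of_ambient {G : Type u} [Group G] [Finite G] (hG : Group.IsSolvable G) {p : ℕ} (hp : p.Prime)
    (A : Subgroup (MulAut G)) (hA : Cfsg.IsElementaryAbelian p A) (hcard : Nat.card A = p ^ 2)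
    (hfpf : ∀ g : G, (∀ a ∈ A, a g = g) → g = 1)
    (hward : ∀ (Γ : Type u) [Group Γ] [Finite Γ] (G' A' : Subgroup Γ), Hyp p G' A' → Meta G') :
    ∃ F : Fin (2 + 1) → Subgroup G, F 0 = ⊥ ∧ F (Fin.last 2) = ⊤ ∧ Monotone F ∧ (∀ i, (F i).Normal) ∧
      ∀ i : Fin 2, ∃ k : ℕ, (F i.succ).lowerCentralSeries k ≤ F i.castSucc := by
  classical
  haveI : Finite (G ⋊[A.subtype] A) :=
    Finite.of_equiv _ (SemidirectProduct.equivProd (φ := A.subtype)).symm
  have hinj : Function.Injective (SemidirectProduct.inl : G →* G ⋊[A.subtype] A) :=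
    SemidirectProduct.inl_injective
  have hinjr : Function.Injective (SemidirectProduct.inr : A →* G ⋊[A.subtype] A) :=
    SemidirectProduct.inr_injective
  have hyp : Hyp p (SemidirectProduct.inl : G →* G ⋊[A.subtype] A).range
      (SemidirectProduct.inr : A →* G ⋊[A.subtype] A).range := by
    refine ⟨?_, ?_, ?_, ?_, ?_, ?_, ?_⟩
    · rw [SemidirectProduct.range_inl_eq_ker_rightHom]
      infer_instance
    · rw [eq_top_iff]
      intro x _
      rw [← SemidirectProduct.inl_left_mul_inr_right x]
      exact mul_mem (mem_sup_left ⟨_, rfl⟩) (mem_sup_right ⟨_, rfl⟩)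
    · haveI : Group.IsSolvable G := hG
      exact solvable_of_surjective
        (SemidirectProduct.inl : G →* G ⋊[A.subtype] A).rangeRestrict_surjective
    · rintro _ ⟨x, rfl⟩ _ ⟨y, rfl⟩
      haveI := hA.1
      rw [← map_mul, ← map_mul, mul_comm']
    · rintro _ ⟨x, rfl⟩
      rw [← map_pow]
      have : x ^ p = 1 := by
        apply Subtype.ext
        simpa using hA.2 x x.2
      rw [this, map_one]
    · rw [Nat.card_congr (MonoidHom.ofInjective hinjr).symm.toEquiv, hcard]
    · rw [eq_bot_iff]
      rintro x hx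
      rw [mem_inf] at hx
      obtain ⟨⟨g, rfl⟩, hc⟩ := hx
      have h1 : g = 1 := by
        apply hfpf
        intro a ha
        have h2 := mem_centralizer_iff.mp hc (SemidirectProduct.inr ⟨a, ha⟩) ⟨_, rfl⟩
        have h3 := SemidirectProduct.inl_aut (φ := A.subtype) ⟨a, ha⟩ g
        apply hinj
        have h4 : (SemidirectProduct.inl (a g) : G ⋊[A.subtype] A)
            = SemidirectProduct.inr ⟨a, ha⟩ * SemidirectProduct.inl g *
              SemidirectProduct.inr (⟨a, ha⟩ : A)⁻¹ := h3
        rw [h4, h2, mul_assoc, ← map_mul, mul_inv_cancel, map_one, mul_one]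
      rw [h1, map_one]
      exact one_mem _
  obtain ⟨F', hFn, hFle, ⟨k, hk⟩, ⟨l, hl⟩⟩ := hward _ _ _ hyp
  haveI := hFn
  refine ⟨![⊥, F'.comap SemidirectProduct.inl, ⊤], rfl, rfl, ?_, ?_, ?_⟩
  · intro i j hij
    fin_cases i <;> fin_cases j <;> simp_all
  · intro i
    fin_cases i
    · show (⊥ : Subgroup G).Normal
      infer_instance
    · show (F'.comap SemidirectProduct.inl).Normal
      infer_instance
    · show (⊤ : Subgroup G).Normal
      infer_instance
  · intro i
    fin_cases i
    · refine ⟨k, ?_⟩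
      show (F'.comap SemidirectProduct.inl).lowerCentralSeries k ≤ ⊥
      have h1 : ((F'.comap SemidirectProduct.inl).lowerCentralSeries k).map
          (SemidirectProduct.inl : G →* G ⋊[A.subtype] A) ≤ ⊥ := by
        rw [Subgroup.map_lowerCentralSeries, ← hk]
        exact Subgroup.lowerCentralSeries_mono _ (Subgroup.map_comap_le _ _)
      intro x hx
      have h2 := h1 (Subgroup.mem_map_of_mem _ hx)
      rw [mem_bot] at h2 ⊢
      apply hinj
      rw [h2, map_one]
    · refine ⟨l, ?_⟩
      show (⊤ : Subgroup G).lowerCentralSeries l ≤ F'.comap SemidirectProduct.inl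
      rw [← Subgroup.map_le_iff_le_comap, Subgroup.map_lowerCentralSeries, ← MonoidHom.range_eq_map]
      exact hl

end Cfsg.Agent.Lib.Helper67.Ward
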