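import Mathlib
import Cfsg.Agent.Lib.Helper15.Ward.Defs

/-!
# Ward's theorem (S3796), piece F: quotients
-/

set_option autoImplicit false

open Subgroup Cfsg.Agent.Lib.Helper88 Cfsg.Agent.Lib.Helper15.Ward

namespace Cfsg.Agent.Lib.Helper67.Ward

/-- `p ∤ |G|` under the hypotheses -/
theorem not_dvd_card {Γ : Type*} [Group Γ] [Finite Γ] {p : ℕ} [Fact p.Prime] {G A : Subgroup Γ}
    (h : Hyp p G A) : ¬ p ∣ Nat.card G := by
  intro hdvd
  have hA : IsPGroup p A := Cfsg.Agent.Lib.Helper22.isPGroup_of_pow_eq_one h.exp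
  have hp : p.Prime := Fact.out
  haveI := h.normal
  -- the set `G \ {1}`
  have hcard : Nat.card ((G : Set Γ) \ {1} : Set Γ) + 1 = Nat.card G := by
    have h1 : ({1} : Set Γ) ⊆ (G : Set Γ) := by
      intro x hx
      rw [Set.mem_singleton_iff] at hx
      rw [hx]; exact G.one_mem
    have h2 := Set.ncard_diff_add_ncard_of_subset h1 (Set.toFinite _)
    rw [Set.ncard_singleton] at h2
    rw [Nat.card_coe_set_eq, h2]
    exact (Nat.card_coe_set_eq _).symm
  have hS : ¬ p ∣ Nat.card ((G : Set Γ) \ {1} : Set Γ) := by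
    intro h3
    have h4 : p ∣ 1 := by
      have := (Nat.dvd_add_right h3).mp (hcard ▸ hdvd)
      exact this
    exact hp.one_lt.ne' (Nat.dvd_one.mp h4)
  obtain ⟨s, hs, hc⟩ := Cfsg.Agent.Lib.Helper22.exists_mem_centralizer_of_invariant_set A hA _ hS (by
    intro a _ s hs
    refine ⟨h.normal.conj_mem s hs.1 a, ?_⟩
    intro h5
    apply hs.2
    rw [Set.mem_singleton_iff] at h5 ⊢
    have : s = a⁻¹ * (a * s * a⁻¹) * a := by group
    rw [this, h5]; group)
  have h6 : s ∈ G ⊓ centralizer (A : Set Γ) := mem_inf.mpr ⟨hs.1, hc⟩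
  rw [h.fix, mem_bot] at h6
  exact hs.2 (Set.mem_singleton_iff.mpr h6)

theorem Hyp.quot {Γ : Type*} [Group Γ] [Finite Γ] {p : ℕ} [Fact p.Prime] {G A : Subgroup Γ}
    (h : Hyp p G A) (N : Subgroup Γ) [N.Normal] :
    Hyp p (G.map (QuotientGroup.mk' N)) (A.map (QuotientGroup.mk' N)) := by
  have hsurj : Function.Surjective (QuotientGroup.mk' N) := QuotientGroup.mk'_surjective N
  haveI := h.normal
  have hA : IsPGroup p A := Cfsg.Agent.Lib.Helper22.isPGroup_of_pow_eq_one h.exp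
  refine ⟨h.normal.map _ hsurj, ?_, ?_, ?_, ?_, ?_, ?_⟩
  · rw [← Subgroup.map_sup, h.sup, Subgroup.map_top_of_surjective _ hsurj]
  · haveI : Group.IsSolvable G := h.sol
    exact solvable_of_surjective ((QuotientGroup.mk' N).subgroupMap_surjective G)
  · rintro _ ⟨x, hx, rfl⟩ _ ⟨y, hy, rfl⟩
    rw [← map_mul, ← map_mul, h.comm x hx y hy]
  · rintro _ ⟨x, hx, rfl⟩
    rw [← map_pow, h.exp x hx, map_one]
  · exact (Subgroup.card_map_dvd _ _).trans h.card
  · rw [Cfsg.Agent.Lib.Helper22.map_inf_centralizer_map A G N hA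
      (Cfsg.Agent.Lib.Helper22.not_dvd_card_of_le inf_le_left (not_dvd_card h))
      le_normalizer_of_normal, h.fix, Subgroup.map_bot]

theorem Meta.of_quot {Γ : Type*} [Group Γ] {G : Subgroup Γ} [G.Normal] (N : Subgroup Γ) [N.Normal]
    (h : Meta (G.map (QuotientGroup.mk' N))) :
    ∃ F : Subgroup Γ, F.Normal ∧ F ≤ G ∧ (∃ k, F.lowerCentralSeries k ≤ N) ∧
      ∃ k, G.lowerCentralSeries k ≤ F := by
  obtain ⟨F, hFn, _, ⟨k, hk⟩, ⟨l, hl⟩⟩ := h
  haveI := hFn
  refine ⟨F.comap (QuotientGroup.mk' N) ⊓ G, inferInstance, inf_le_right, ⟨k, ?_⟩, ⟨l, ?_⟩⟩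
  · have h1 : ((F.comap (QuotientGroup.mk' N) ⊓ G).lowerCentralSeries k).map (QuotientGroup.mk' N)
        ≤ ⊥ := by
      rw [Subgroup.map_lowerCentralSeries, ← hk]
      apply Subgroup.lowerCentralSeries_mono
      exact (Subgroup.map_mono inf_le_left).trans (Subgroup.map_comap_le _ _)
    intro x hx
    have h2 := h1 (Subgroup.mem_map_of_mem _ hx)
    rw [Subgroup.mem_bot] at h2
    exact (QuotientGroup.eq_one_iff x).mp h2
  · apply le_inf
    · rw [← Subgroup.map_le_iff_le_comap, Subgroup.map_lowerCentralSeries]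
      exact hl
    · exact Subgroup.lowerCentralSeries_le_self _ _

theorem card_map_lt {Γ : Type*} [Group Γ] [Finite Γ] (G N : Subgroup Γ) [N.Normal]
    (h : G ⊓ N ≠ ⊥) : Nat.card (G.map (QuotientGroup.mk' N)) < Nat.card G := by
  -- the restriction of `mk'` to `G`
  set f : G →* (Γ ⧸ N) := (QuotientGroup.mk' N).comp G.subtype with hf
  have hrange : f.range = G.map (QuotientGroup.mk' N) := by
    rw [hf, MonoidHom.range_eq_map, ← Subgroup.map_map, ← MonoidHom.range_eq_map,
      Subgroup.range_subtype]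
  have hker : f.ker ≠ ⊥ := by
    intro h0
    apply h
    rw [eq_bot_iff]
    intro x hx
    rw [mem_inf] at hx
    have h1 : (⟨x, hx.1⟩ : G) ∈ f.ker := by
      rw [MonoidHom.mem_ker]
      exact (QuotientGroup.eq_one_iff x).mpr hx.2
    rw [h0, mem_bot] at h1
    rw [mem_bot]
    exact congrArg Subtype.val h1
  have h1 : Nat.card G = Nat.card (G ⧸ f.ker) * Nat.card f.ker :=
    Subgroup.card_eq_card_quotient_mul_card_subgroup f.ker
  have h2 : Nat.card (G ⧸ f.ker) = Nat.card f.range :=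
    Nat.card_congr (QuotientGroup.quotientKerEquivRange f).toEquiv
  have h3 : 1 < Nat.card f.ker := by
    rw [Subgroup.one_lt_card_iff_ne_bot]
    exact hker
  rw [← hrange, h1, h2]
  have h4 : 0 < Nat.card f.range := Nat.card_pos
  nlinarith

end Cfsg.Agent.Lib.Helper67.Ward
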